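import Mathlib

/-!
# The exchange condition characterises Coxeter systems

`σ : I → W` is a family of elements of a group; `wp σ l` is the value of a word.
`Red σ l` says that `l` is a shortest word for its value. The main result
`exists_coxeterSystem` : involutions generating `W` and satisfying the exchange condition
form a Coxeter system.
-/

set_option autoImplicit false

namespace Cfsg.Agent.Cox

variable {I W : Type*} [Group W] (σ : I → W)

/-- the value of a word -/
def wp (l : List I) : W := (l.map σ).prod

@[simp] theorem wp_nil : wp σ [] = 1 := rfl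

@[simp] theorem wp_cons (i : I) (l : List I) : wp σ (i :: l) = σ i * wp σ l := by simp [wp]

@[simp] theorem wp_append (l l' : List I) : wp σ (l ++ l') = wp σ l * wp σ l' := by simp [wp]

/-- Shortest words. -/
def Red (l : List I) : Prop := ∀ l' : List I, wp σ l' = wp σ l → l.length ≤ l'.length

/-- alternating words starting with the first letter -/
def alt (s t : I) : ℕ → List I
  | 0 => []
  | (n + 1) => s :: alt t s n

@[simp] theorem length_alt (s t : I) (n : ℕ) : (alt s t n).length = n := by
  induction n generalizing s t with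
  | zero => rfl
  | succ n ih => simp [alt, ih]

theorem take_alt (s t : I) (n i : ℕ) (h : i ≤ n) : (alt s t n).take i = alt s t i := by
  induction n generalizing s t i with
  | zero =>
    obtain rfl : i = 0 := by omega
    rfl
  | succ n ih =>
    cases i with
    | zero => rfl
    | succ i => simp [alt, ih t s i (by omega)]

theorem exists_alt_append (s t : I) (n i : ℕ) (h : i ≤ n) :
    ∃ r, alt s t n = alt s t i ++ r :=
  ⟨(alt s t n).drop i, by rw [← take_alt s t n i h, List.take_append_drop]⟩

theorem map_alt {J : Type*} (f : I → J) (s t : I) (n : ℕ) :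
    (alt s t n).map f = alt (f s) (f t) n := by
  induction n generalizing s t with
  | zero => rfl
  | succ n ih => simp [alt, ih]

theorem wp_alt_mul_inv (s t : I) (hs : σ s * σ s = 1) (ht : σ t * σ t = 1) (n : ℕ) :
    wp σ (alt s t n) * (wp σ (alt t s n))⁻¹ = (σ s * σ t) ^ n := by
  induction n generalizing s t with
  | zero => simp [alt]
  | succ n ih =>
    have ht' : (σ t)⁻¹ = σ t := by rw [inv_eq_iff_mul_eq_one, ht]
    simp only [alt, wp_cons, mul_inv_rev]
    have : σ s * wp σ (alt t s n) * ((wp σ (alt s t n))⁻¹ * (σ t)⁻¹) =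
        σ s * (wp σ (alt t s n) * (wp σ (alt s t n))⁻¹) * σ t := by
      rw [ht']; group
    rw [this, ih t s ht hs]
    -- a (b a)^n b = (a b)^(n+1)
    clear this ih
    induction n with
    | zero => simp
    | succ n ih =>
      have e : σ s * (σ t * σ s) ^ (n + 1) * σ t = σ s * σ t * (σ s * (σ t * σ s) ^ n * σ t) := by
        rw [pow_succ']; simp only [mul_assoc]
      rw [e, ih, ← pow_succ']

theorem wp_alt_eq_iff (s t : I) (hs : σ s * σ s = 1) (ht : σ t * σ t = 1) (n : ℕ) :
    wp σ (alt s t n) = wp σ (alt t s n) ↔ (σ s * σ t) ^ n = 1 := by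
  rw [← wp_alt_mul_inv σ s t hs ht n, mul_inv_eq_one]

/-- The exchange condition for a generating family of involutions. -/
structure Exchange : Prop where
  sq : ∀ i, σ i * σ i = 1
  inj : Function.Injective σ
  gen : ∀ w, ∃ l, wp σ l = w
  exch : ∀ (i : I) (l : List I), Red σ l → ¬ Red σ (i :: l) →
    ∃ j < l.length, σ i * wp σ (l.take j) = wp σ (l.take (j + 1))

namespace Exchange

variable {σ} (E : Exchange σ)
include E

theorem cancel (i : I) (w : W) : σ i * (σ i * w) = w := by
  rw [← mul_assoc, E.sq, one_mul]

theorem red_tail {i : I} {l : List I} (h : Red σ (i :: l)) : Red σ l := by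
  intro l' hl'
  have := h (i :: l') (by rw [wp_cons, wp_cons, hl'])
  simpa using this

theorem red_of_append {l r : List I} (h : Red σ (l ++ r)) : Red σ r := by
  induction l with
  | nil => exact h
  | cons i l ih => exact ih (E.red_tail h)

theorem exists_red (w : W) : ∃ l, Red σ l ∧ wp σ l = w := by
  classical
  have hex : ∃ n, ∃ l : List I, l.length = n ∧ wp σ l = w := by
    obtain ⟨l, hl⟩ := E.gen w
    exact ⟨l.length, l, rfl, hl⟩
  obtain ⟨l, hl, hw⟩ := Nat.find_spec hex
  refine ⟨l, fun l' hl' => ?_, hw⟩
  rw [hl]
  exact Nat.find_min' hex ⟨l', rfl, hl'.trans hw⟩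

omit E in
theorem red_length_eq {l l' : List I} (hl : Red σ l) (hl' : Red σ l') (h : wp σ l = wp σ l') :
    l.length = l'.length :=
  le_antisymm (hl l' h.symm) (hl' l h)

/-- If `i :: l` is not reduced and `l` is, there is `l'` of length `l.length - 1` with value
`σ i * wp l`, obtained by deleting a letter. -/
theorem erase {i : I} {l : List I} {j : ℕ}
    (h : σ i * wp σ (l.take j) = wp σ (l.take (j + 1))) : σ i * wp σ l = wp σ (l.eraseIdx j) := by
  rw [List.eraseIdx_eq_take_drop_succ, wp_append]
  conv_lhs => rw [← List.take_append_drop (j + 1) l, wp_append, ← h]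
  rw [← mul_assoc, E.cancel]

/-- one step in the comparison of two reduced words with different first letters -/
theorem step {s t : I} {j : ℕ} {r a : List I} (hr : Red σ (alt t s j ++ r))
    (ha : Red σ (s :: a)) (he : wp σ (s :: a) = wp σ (alt t s j ++ r)) :
    (∃ i, 1 ≤ i ∧ i ≤ j ∧ (σ s * σ t) ^ i = 1) ∨
      ∃ r', Red σ (alt s t (j + 1) ++ r') ∧ wp σ (alt s t (j + 1) ++ r') = wp σ (s :: a) := by
  have hlen := red_length_eq ha hr he
  have hnr : ¬ Red σ (s :: (alt t s j ++ r)) := by
    intro h
    have := h a (by rw [wp_cons, ← he, wp_cons, E.cancel])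
    simp only [List.length_cons] at this hlen
    omega
  obtain ⟨i, hi, e⟩ := E.exch s _ hr hnr
  by_cases hij : i < j
  · left
    refine ⟨i + 1, by omega, by omega, ?_⟩
    rw [List.take_append_of_le_length (by rw [length_alt]; omega),
      List.take_append_of_le_length (by rw [length_alt]; omega),
      take_alt t s j i hij.le, take_alt t s j (i + 1) hij] at e
    rw [← wp_alt_eq_iff σ s t (E.sq s) (E.sq t)]
    rw [← e, alt, wp_cons]
  · right
    push Not at hij
    have e2 := E.erase e
    have e3 : (alt t s j ++ r).eraseIdx i = alt t s j ++ r.eraseIdx (i - j) := by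
      rw [List.eraseIdx_append_of_length_le (by rw [length_alt]; exact hij), length_alt]
    have hval : wp σ (alt s t (j + 1) ++ r.eraseIdx (i - j)) = wp σ (s :: a) := by
      rw [alt, List.cons_append, wp_cons, ← e3, ← e2, ← he, E.cancel]
    refine ⟨r.eraseIdx (i - j), ?_, hval⟩
    intro l' hl'
    have h1 := ha l' (hl'.trans hval)
    have h2 : (alt s t (j + 1) ++ r.eraseIdx (i - j)).length = (s :: a).length := by
      rw [hlen, alt, List.cons_append, ← e3, List.length_cons, List.length_eraseIdx_of_lt hi]
      omega
    rw [h2]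
    exact h1

/-- Comparison of two reduced words of the same element with different first letters. -/
theorem exists_braid {s t : I} {a b : List I} (ha : Red σ (s :: a)) (hb : Red σ (t :: b))
    (he : wp σ (s :: a) = wp σ (t :: b)) :
    0 < orderOf (σ s * σ t) ∧ ∃ r, Red σ (alt s t (orderOf (σ s * σ t)) ++ r) ∧
      wp σ (alt s t (orderOf (σ s * σ t)) ++ r) = wp σ (s :: a) := by
  by_contra hcon
  have hpow : ∀ i, (σ t * σ s) ^ i = 1 → (σ s * σ t) ^ i = 1 := by
    intro i hi
    have h1 : σ s * σ t = (σ t * σ s)⁻¹ := by
      rw [mul_inv_rev]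
      have hs' : (σ s)⁻¹ = σ s := by rw [inv_eq_iff_mul_eq_one, E.sq]
      have ht' : (σ t)⁻¹ = σ t := by rw [inv_eq_iff_mul_eq_one, E.sq]
      rw [hs', ht']
    rw [h1, inv_pow, hi, inv_one]
  have key : ∀ j : ℕ,
      (∃ r, Red σ (alt s t (j + 1) ++ r) ∧ wp σ (alt s t (j + 1) ++ r) = wp σ (s :: a)) ∧
      (∃ r, Red σ (alt t s (j + 1) ++ r) ∧ wp σ (alt t s (j + 1) ++ r) = wp σ (s :: a)) := by
    intro j
    induction j with
    | zero =>
      refine ⟨⟨a, ?_, ?_⟩, ⟨b, ?_, ?_⟩⟩
      · simpa [alt] using ha
      · simp [alt]
      · simpa [alt] using hb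
      · rw [he]; simp [alt]
    | succ j ih =>
      obtain ⟨⟨r1, hr1, e1⟩, ⟨r2, hr2, e2⟩⟩ := ih
      -- no small relation
      have hno : ¬ ∃ i, 1 ≤ i ∧ i ≤ j + 1 ∧ (σ s * σ t) ^ i = 1 := by
        rintro ⟨i, hi1, hi2, hi⟩
        apply hcon
        have hdvd := orderOf_dvd_of_pow_eq_one hi
        have hpos : 0 < orderOf (σ s * σ t) := Nat.pos_of_dvd_of_pos hdvd (by omega)
        have hle : orderOf (σ s * σ t) ≤ i := Nat.le_of_dvd (by omega) hdvd
        refine ⟨hpos, ?_⟩
        obtain ⟨q, hq⟩ := exists_alt_append s t (j + 1) _ (hle.trans hi2)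
        refine ⟨q ++ r1, ?_, ?_⟩
        · rw [← List.append_assoc, ← hq]; exact hr1
        · rw [← List.append_assoc, ← hq]; exact e1
      constructor
      · rcases E.step hr2 ha e2.symm with h | h
        · exact absurd h hno
        · exact h
      · have e1' : wp σ (t :: b) = wp σ (alt s t (j + 1) ++ r1) := by rw [e1, he]
        rcases E.step hr1 hb e1' with ⟨i, h1, h2, h3⟩ | ⟨r', h1, h2⟩
        · exact absurd ⟨i, h1, h2, hpow i h3⟩ hno
        · exact ⟨r', h1, by rw [h2, he]⟩
  obtain ⟨⟨r, hr, e⟩, _⟩ := key (s :: a).length
  have := hr (s :: a) e.symm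
  simp only [List.length_append, length_alt] at this
  omega

/-- Matsumoto's theorem: products of the images of the letters of reduced words only depend on the
value of the word, provided the braid relations hold. -/
theorem matsumoto {M : Type*} [Monoid M] (f : I → M)
    (hf : ∀ s t, s ≠ t → 0 < orderOf (σ s * σ t) →
      ((alt s t (orderOf (σ s * σ t))).map f).prod = ((alt t s (orderOf (σ s * σ t))).map f).prod) :
    ∀ l l' : List I, Red σ l → Red σ l' → wp σ l = wp σ l' → (l.map f).prod = (l'.map f).prod := by
  have key : ∀ n : ℕ, ∀ l l' : List I, l.length = n → Red σ l → Red σ l' → wp σ l = wp σ l' →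
      (l.map f).prod = (l'.map f).prod := by
    intro n
    induction n with
    | zero =>
      intro l l' hn hl hl' he
      have h1 := red_length_eq hl hl' he
      rw [List.length_eq_zero_iff] at hn
      subst hn
      have : l' = [] := by
        rw [← List.length_eq_zero_iff, ← h1]; rfl
      rw [this]
    | succ n ih =>
      intro l l' hn hl hl' he
      have h1 := red_length_eq hl hl' he
      cases l with
      | nil => simp at hn
      | cons s a =>
      cases l' with
      | nil => simp at h1
      | cons t b =>
      simp only [List.length_cons, Nat.add_right_cancel_iff] at hn h1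
      by_cases hst : s = t
      · subst hst
        have h2 : wp σ a = wp σ b := by
          rw [wp_cons, wp_cons] at he
          exact mul_left_cancel he
        simp only [List.map_cons, List.prod_cons]
        rw [ih a b hn (E.red_tail hl) (E.red_tail hl') h2]
      · obtain ⟨hpos, r, hr, e⟩ := E.exists_braid hl hl' he
        obtain ⟨m, hm⟩ := Nat.exists_eq_succ_of_ne_zero hpos.ne'
        have hbr := hf s t hst hpos
        rw [hm] at hr e hbr
        -- compare `s :: a` with `alt s t (m+1) ++ r`
        have hlen := red_length_eq hl hr e.symm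
        have c1 : ((s :: a).map f).prod = ((alt s t (m + 1) ++ r).map f).prod := by
          rw [Nat.succ_eq_add_one, alt, List.cons_append] at hr e
          rw [alt, List.cons_append]
          have h2 : wp σ a = wp σ (alt t s m ++ r) := by
            rw [wp_cons, wp_cons] at e
            exact (mul_left_cancel e).symm
          simp only [List.map_cons, List.prod_cons]
          rw [ih a _ hn (E.red_tail hl) (E.red_tail hr) h2]
        -- the other word
        have hval : wp σ (alt t s (m + 1)) = wp σ (alt s t (m + 1)) := by
          symm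
          rw [wp_alt_eq_iff σ s t (E.sq s) (E.sq t), ← Nat.succ_eq_add_one, ← hm]
          exact pow_orderOf_eq_one _
        have e' : wp σ (alt t s (m + 1) ++ r) = wp σ (s :: a) := by
          rw [wp_append, hval, ← wp_append]; exact e
        have hr' : Red σ (alt t s (m + 1) ++ r) := by
          intro l'' hl''
          have := hr l'' (hl''.trans (e'.trans e.symm))
          simpa using this
        have c2 : ((t :: b).map f).prod = ((alt t s (m + 1) ++ r).map f).prod := by
          rw [he] at e'
          rw [alt, List.cons_append] at hr' e'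
          rw [alt, List.cons_append]
          have h2 : wp σ b = wp σ (alt s t m ++ r) := by
            rw [wp_cons, wp_cons] at e'
            exact (mul_left_cancel e').symm
          simp only [List.map_cons, List.prod_cons]
          rw [ih b _ (by omega) (E.red_tail hl') (E.red_tail hr') h2]
        rw [c1, c2, List.map_append, List.map_append, List.prod_append, List.prod_append, ← hbr]
  intro l l' hl hl' he
  exact key _ l l' rfl hl hl' he

/-- The Coxeter matrix of an exchange system. -/
noncomputable def matrix : CoxeterMatrix I where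
  M := Matrix.of fun i j => orderOf (σ i * σ j)
  isSymm := by
    ext i j
    simp only [Matrix.transpose_apply, Matrix.of_apply]
    have h1 : σ j * σ i = (σ i * σ j)⁻¹ := by
      rw [mul_inv_rev]
      have hs' : (σ i)⁻¹ = σ i := by rw [inv_eq_iff_mul_eq_one, E.sq]
      have ht' : (σ j)⁻¹ = σ j := by rw [inv_eq_iff_mul_eq_one, E.sq]
      rw [hs', ht']
    rw [h1, orderOf_inv]
  diagonal i := by simp [E.sq]
  off_diagonal i j hij := by
    simp only [Matrix.of_apply, ne_eq, orderOf_eq_one_iff]
    intro h
    apply hij
    apply E.inj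
    have : (σ j)⁻¹ = σ j := by rw [inv_eq_iff_mul_eq_one, E.sq]
    rw [mul_eq_one_iff_eq_inv, this] at h
    exact h

theorem matrix_apply (i j : I) : E.matrix i j = orderOf (σ i * σ j) := rfl

theorem liftable : E.matrix.IsLiftable σ := by
  intro i j
  rw [matrix_apply]
  exact pow_orderOf_eq_one _

/-- The canonical map from the Coxeter group. -/
noncomputable def toW : E.matrix.Group →* W := E.matrix.toCoxeterSystem.lift ⟨σ, E.liftable⟩

theorem toW_simple (i : I) : E.toW (E.matrix.simple i) = σ i :=
  E.matrix.toCoxeterSystem.lift_apply_simple E.liftable i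

theorem simple_sq (i : I) : E.matrix.simple i * E.matrix.simple i = 1 :=
  E.matrix.toCoxeterSystem.simple_mul_simple_self i

/-- The value in the Coxeter group of a chosen reduced word. -/
noncomputable def toCox (w : W) : E.matrix.Group :=
  ((Classical.choose (E.exists_red w)).map E.matrix.simple).prod

theorem toCox_wp {l : List I} (hl : Red σ l) : E.toCox (wp σ l) = (l.map E.matrix.simple).prod := by
  obtain ⟨h1, h2⟩ := Classical.choose_spec (E.exists_red (wp σ l))
  refine E.matsumoto E.matrix.simple ?_ _ _ h1 hl h2
  intro s t _ _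
  change wp E.matrix.simple _ = wp E.matrix.simple _
  rw [wp_alt_eq_iff E.matrix.simple s t (E.simple_sq s) (E.simple_sq t), ← E.matrix_apply]
  exact E.matrix.toCoxeterSystem.simple_mul_simple_pow s t

theorem toCox_σ_mul (i : I) (w : W) :
    E.toCox (σ i * w) = E.matrix.simple i * E.toCox w := by
  obtain ⟨l, hl, rfl⟩ := E.exists_red w
  by_cases hr : Red σ (i :: l)
  · rw [← wp_cons, E.toCox_wp hr, E.toCox_wp hl]
    simp
  · obtain ⟨j, hj, e⟩ := E.exch i l hl hr
    have e2 := E.erase e
    have hlen := List.length_eraseIdx_of_lt hj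
    -- `i :: l.eraseIdx j` is reduced with the value of `l`
    have h1 : wp σ (i :: l.eraseIdx j) = wp σ l := by rw [wp_cons, ← e2, E.cancel]
    have h2 : Red σ (i :: l.eraseIdx j) := by
      intro l' hl'
      have := hl l' (hl'.trans h1)
      rw [List.length_cons, hlen]
      omega
    rw [e2, E.toCox_wp (E.red_tail h2), ← h1, E.toCox_wp h2, List.map_cons, List.prod_cons,
      ← mul_assoc, E.simple_sq, one_mul]

theorem toCox_one : E.toCox 1 = 1 := by
  have : Red σ [] := fun l' _ => Nat.zero_le _
  simpa using E.toCox_wp this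

theorem toCox_mul (w w' : W) : E.toCox (w * w') = E.toCox w * E.toCox w' := by
  obtain ⟨l, rfl⟩ := E.gen w
  induction l with
  | nil => simp [E.toCox_one]
  | cons i l ih =>
    rw [wp_cons, mul_assoc, E.toCox_σ_mul, ih, E.toCox_σ_mul, mul_assoc]

theorem toW_prod (l : List I) : E.toW ((l.map E.matrix.simple).prod) = wp σ l := by
  induction l with
  | nil => simp
  | cons i l ih => simp [E.toW_simple, ih]

/-- The isomorphism with the Coxeter group. -/
noncomputable def equiv : W ≃* E.matrix.Group where
  toFun := E.toCox
  invFun := E.toW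
  left_inv w := by
    obtain ⟨l, hl, rfl⟩ := E.exists_red w
    rw [E.toCox_wp hl, E.toW_prod]
  right_inv x := by
    have h : (MonoidHom.mk' E.toCox E.toCox_mul).comp E.toW = MonoidHom.id _ := by
      apply E.matrix.toCoxeterSystem.ext_simple
      intro i
      change E.toCox (E.toW (E.matrix.simple i)) = E.matrix.simple i
      rw [E.toW_simple]
      have := E.toCox_σ_mul i 1
      rwa [mul_one, E.toCox_one, mul_one] at this
    exact DFunLike.congr_fun h x
  map_mul' := E.toCox_mul

theorem exists_coxeterSystem :
    ∃ (M : CoxeterMatrix I) (cs : CoxeterSystem M W), ∀ i : I, cs.simple i = σ i :=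
  ⟨E.matrix, ⟨E.equiv⟩, fun i => E.toW_simple i⟩

end Exchange

end Cfsg.Agent.Cox
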